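import Cfsg.Agent.Lib.Helper33.KS.Defs

/-!
# [P2] of helper33's K-S 12.3 farm: membership along short walks (helper63)
-/

set_option autoImplicit false

namespace Cfsg.Agent.Lib.Helper63.KS

open Subgroup MulAction Cfsg.Agent.Lib.Helper33.KS
open Cfsg.Agent.Lib.Helper22 (conjS mem_conjS conjS_mem conjS_mul conjS_one)

variable {G : Type*} [Group G] {V : Type*} [MulAction G V] {adj : V → V → Prop}
  {Q Z : V → Subgroup G}

theorem p2_aux (hC : Cub adj Q Z) {b : ℕ} (hlt : ∀ m < b, Cm adj Z m) :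
    ∀ (n : ℕ) (f : ℤ → V) (l : ℤ), IsPath adj f l (l + n) → n < b →
      Z (f (l + n)) ≤ Q (f l) ∧ Z (f l) ≤ Q (f (l + n)) := by
  intro n
  induction n with
  | zero =>
    intro f l _ _
    simp only [Nat.cast_zero, add_zero, and_self]
    exact hC.ZQ _
  | succ n ih =>
    intro f l hp hn
    have hadj0 : adj (f l) (f (l+1)) := hp l le_rfl (by push_cast; omega)
    have hadj1 : adj (f (l+n)) (f (l+n+1)) := hp (l+n) (by omega) (by push_cast; omega)
    have hcm : Cmt Z (f l) (f (l + (n+1 : ℕ))) := hlt (n+1) hn f l hp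
    have ih1 := ih f (l+1) (fun i h1 h2 => hp i (by omega) (by push_cast; omega)) (by omega)
    have ih2 := ih f l (fun i h1 h2 => hp i h1 (by push_cast; omega)) (by omega)
    have e : l + 1 + (n:ℤ) = l + ((n+1 : ℕ) : ℤ) := by push_cast; ring
    rw [e] at ih1
    constructor
    · intro x hx
      apply hC.CZ _ x (hC.QB (hC.symm hadj0) (ih1.1 hx))
      intro a ha
      exact (hcm a ha x hx).symm
    · intro x hx
      have e2 : l + ((n+1 : ℕ) : ℤ) = l + n + 1 := by push_cast; ring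
      rw [e2]
      apply hC.CZ _ x (hC.QB hadj1 (ih2.2 hx))
      intro a ha
      rw [← e2] at ha
      exact hcm x hx a ha

theorem p2 (hC : Cub adj Q Z) {b : ℕ} (hlt : ∀ m < b, Cm adj Z m) : P2 adj Q Z b := by
  intro f l u hp hlu hb
  obtain ⟨n, rfl⟩ : ∃ n : ℕ, u = l + n := ⟨(u - l).toNat, by omega⟩
  exact p2_aux hC hlt n f l hp (by omega)

end Cfsg.Agent.Lib.Helper63.KS
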