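import Cfsg.Agent.Lib.Helper33.KS.Defs

/-!
# [P4] of helper33's K-S 12.3 farm: basic properties of `w(A → B)` (helper63)
-/

set_option autoImplicit false

namespace Cfsg.Agent.Lib.Helper63.KS

open Subgroup MulAction Cfsg.Agent.Lib.Helper33.KS
open Cfsg.Agent.Lib.Helper22 (conjS mem_conjS conjS_mem conjS_mul conjS_one)

variable {G : Type*} [Group G] {V : Type*} [MulAction G V] {adj : V → V → Prop}
  {Q Z : V → Subgroup G}

/-- the stabilizer of `A` normalizes `Z A`. -/
theorem Z_conj_mem (hC : Cub adj Q Z) {A : V} {t a : G} (ht : t ∈ St G A) (ha : a ∈ Z A) :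
    t * a * t⁻¹ ∈ Z A := by
  have h := hC.Z_smul t A
  rw [show t • A = A from ht] at h
  rw [h]
  exact conjS_mem ha

theorem St_smul (g : G) (A : V) : St G (g • A) = conjS g (St G A) :=
  MulAction.stabilizer_smul_eq_stabilizer_map_conj g A

theorem p4 (hC : Cub adj Q Z) : P4 adj Z := by
  intro A B w hadj hW
  obtain ⟨hw1, hw2, a, ha, t, ht, hw⟩ := hW
  have hwA : w ∈ Z A := by
    rw [← hw]
    exact mul_mem ha (Z_conj_mem hC ht.1 ha)
  have hcen : ∀ t' ∈ St G A ⊓ St G B, t' * w = w * t' := by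
    intro t' ht'
    have h1 : t' * a * t'⁻¹ ∈ Z A := Z_conj_mem hC ht'.1 ha
    have h2 : t' * t * t'⁻¹ ∈ St G A ⊓ St G B := mul_mem (mul_mem ht' ht) (inv_mem ht')
    have e : (t' * a * t'⁻¹) * ((t' * t * t'⁻¹) * (t' * a * t'⁻¹) * (t' * t * t'⁻¹)⁻¹)
        = t' * w * t'⁻¹ := by
      rw [← hw]; group
    rcases hw2 _ h1 _ h2 with h | h
    · exfalso
      rw [e] at h
      apply hw1
      have : w = t'⁻¹ * (t' * w * t'⁻¹) * t' := by group
      rw [this, h]; group
    · rw [e] at h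
      calc t' * w = (t' * w * t'⁻¹) * t' := by group
        _ = w * t' := by rw [h]
  refine ⟨hwA, hC.OmS hadj w hwA hcen, hcen, ?_, ?_⟩
  · rintro w' ⟨hw'1, _, a', ha', t', ht', hw'⟩
    rcases hw2 a' ha' t' ht' with h | h
    · exact absurd (hw'.symm.trans h) hw'1
    · exact hw'.symm.trans h
  · intro g
    refine ⟨?_, ?_, ?_⟩
    · intro h
      apply hw1
      have : w = g⁻¹ * (g * w * g⁻¹) * g := by group
      rw [this, h]; group
    · intro a' ha' t' ht'
      rw [hC.Z_smul, mem_conjS] at ha'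
      have ht'' : g⁻¹ * t' * g ∈ St G A ⊓ St G B := by
        have h1 : t' ∈ St G (g • A) := ht'.1
        have h2 : t' ∈ St G (g • B) := ht'.2
        rw [St_smul, mem_conjS] at h1 h2
        exact ⟨h1, h2⟩
      have e : a' * (t' * a' * t'⁻¹) =
          g * ((g⁻¹ * a' * g) * ((g⁻¹ * t' * g) * (g⁻¹ * a' * g) * (g⁻¹ * t' * g)⁻¹)) * g⁻¹ := by
        group
      rcases hw2 _ ha' _ ht'' with h | h
      · left; rw [e, h]; group
      · right; rw [e, h]
    · refine ⟨g * a * g⁻¹, ?_, g * t * g⁻¹, ?_, ?_⟩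
      · rw [hC.Z_smul]; exact conjS_mem ha
      · constructor
        · rw [St_smul]; exact conjS_mem ht.1
        · rw [St_smul]; exact conjS_mem ht.2
      · rw [← hw]; group

end Cfsg.Agent.Lib.Helper63.KS
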